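import Mathlib
import Cfsg.Agent.H99.SolvGenPSL
import Cfsg.Agent.Lib.SolvableMinNormal

/-!
# Solvable groups containing an element of order `r` transitive on `r` points; `PSL(3, 3)`
-/

set_option autoImplicit false

namespace Cfsg.Agent.H99.SolvGenPrime

open Cfsg Cfsg.Agent.H99.SolvGen MulAction

variable {G X : Type*} [Group G] [Finite G] [MulAction G X] [Finite X]

omit [Finite G] in
theorem transitive_of_prime (hf : FaithfulSMul G X) {r : ℕ} (hr : r.Prime) (hX : Nat.card X = r)
    {x : G} (hx : orderOf x = r) :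
    (∀ a : X, x • a ≠ a) ∧ ∀ a b : X, ∃ i : ℤ, x ^ i • a = b := by
  classical
  have : Fintype X := Fintype.ofFinite X
  have hinj : Function.Injective (MulAction.toPermHom G X) := MulAction.toPerm_injective
  set σ := MulAction.toPermHom G X x with hσ
  have hσo : orderOf σ = r := by rw [hσ, orderOf_injective _ hinj, hx]
  have hX' : Fintype.card X = r := by rw [← Nat.card_eq_fintype_card, hX]
  have hc : σ.IsCycle := by
    apply Equiv.Perm.isCycle_of_prime_order'
    · rw [hσo]; exact hr
    · rw [hσo, hX']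
      have := hr.pos
      omega
  have hsupp : σ.support = Finset.univ := by
    rw [← Finset.card_eq_iff_eq_univ, ← hc.orderOf, hσo, hX']
  have h1 : ∀ a : X, σ a ≠ a := fun a => Equiv.Perm.mem_support.1 (by rw [hsupp]; simp)
  refine ⟨h1, fun a b => ?_⟩
  obtain ⟨i, hi⟩ := hc.sameCycle (h1 a) (h1 b)
  refine ⟨i, ?_⟩
  rw [hσ, ← map_zpow] at hi
  exact hi

/-- Galois: in a group acting faithfully on `r` points, `r` prime, an element `x` of order `r`
generates a normal subgroup of every solvable subgroup containing it. -/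
theorem conj_mem_of_card (hf : FaithfulSMul G X) {r : ℕ} (hr : r.Prime) (hX : Nat.card X = r)
    {x : G} (hx : orderOf x = r) (H : Subgroup G) (hs : Group.IsSolvable H) (hxH : x ∈ H) :
    ∀ g ∈ H, g * x * g⁻¹ ∈ Subgroup.zpowers x := by
  classical
  have hrf : Fact r.Prime := ⟨hr⟩
  have hx1 : x ≠ 1 := by
    rintro rfl
    rw [orderOf_one] at hx
    exact hr.one_lt.ne hx
  obtain ⟨hnf, htr⟩ := transitive_of_prime hf hr hX hx
  -- `r ^ 2` does not divide `|G|`
  have hr2 : ¬ r ^ 2 ∣ Nat.card G := by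
    intro h
    have h1 : r ^ 2 ∣ r.factorial := by
      refine h.trans ?_
      rw [← hX, ← Nat.card_perm]
      exact Subgroup.card_dvd_of_injective (MulAction.toPermHom G X) MulAction.toPerm_injective
    obtain ⟨m, hm⟩ : ∃ m, r = m + 1 := ⟨r - 1, by have := hr.pos; omega⟩
    have h2 : r.factorial = r * (r - 1).factorial := (Nat.mul_factorial_pred hr.pos.ne').symm
    rw [h2, pow_two] at h1
    have h3 := (Nat.mul_dvd_mul_iff_left hr.pos).1 h1
    have h4 := (Nat.Prime.dvd_factorial hr).1 h3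
    omega
  have hLn : Nontrivial H := ⟨⟨x, hxH⟩, 1, fun h => hx1 (congrArg Subtype.val h)⟩
  obtain ⟨p, hp, V₀, hVc, hVab, hVp, hV0⟩ :=
    Lib.SolvableMinNormal.exists_characteristic_pgroup (G := H)
  have hVn : V₀.Normal := inferInstance
  have hpf : Fact p.Prime := ⟨hp⟩
  obtain ⟨⟨w, hw⟩, hw1'⟩ := Subgroup.ne_bot_iff_exists_ne_one.1 hV0
  have hw1 : (w : G) ≠ 1 := fun h => hw1' (Subtype.ext (Subtype.ext h))
  -- `V₀` has no fixed point
  have hVf : ∀ a : X, ∃ v ∈ V₀, (v : G) • a ≠ a := by
    intro a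
    by_contra hcon
    push Not at hcon
    apply hw1
    apply hf.eq_of_smul_eq_smul
    intro b
    rw [one_smul]
    obtain ⟨i, rfl⟩ := htr a b
    have h1 := hVn.conj_mem w hw ((⟨x, hxH⟩ : H) ^ i)⁻¹
    have h2 := hcon _ h1
    push_cast at h2
    rw [inv_inv] at h2
    calc (w : G) • x ^ i • a = x ^ i • (((x ^ i)⁻¹ * (w : G) * x ^ i) • a) := by
          rw [← mul_smul, ← mul_smul]
          congr 1
          group
      _ = x ^ i • a := by rw [h2]
  -- so `p = r`
  have hpr : p = r := by
    have h1 := hVp.card_modEq_card_fixedPoints X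
    have h2 : MulAction.fixedPoints V₀ X = ∅ := by
      rw [Set.eq_empty_iff_forall_notMem]
      intro a ha
      obtain ⟨v, hv, hva⟩ := hVf a
      exact hva (ha ⟨v, hv⟩)
    rw [h2] at h1
    have h3 : Nat.card (∅ : Set X) = 0 := by simp
    rw [h3, hX] at h1
    have h4 : p ∣ r := (Nat.modEq_zero_iff_dvd).1 h1
    exact (Nat.prime_dvd_prime_iff_eq hp hr).1 h4
  subst hpr
  -- `x ∈ V₀`
  let y : H := ⟨x, hxH⟩
  have hy : orderOf y = p := by rw [← hx]; exact Subgroup.orderOf_mk x hxH
  have hVcard : Nat.card V₀ = p := by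
    obtain ⟨k, hk⟩ := IsPGroup.iff_card.1 hVp
    have hdvd : Nat.card V₀ ∣ Nat.card G :=
      (Subgroup.card_subgroup_dvd_card V₀).trans (Subgroup.card_subgroup_dvd_card H)
    have hk1 : k ≤ 1 := by
      by_contra hcon
      apply hr2
      refine (pow_dvd_pow p (show 2 ≤ k by omega)).trans ?_
      rw [← hk]
      exact hdvd
    have hk0 : k ≠ 0 := by
      rintro rfl
      rw [pow_zero] at hk
      exact hV0 (Subgroup.card_eq_one.1 hk)
    have : k = 1 := by omega
    rw [hk, this, pow_one]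
  have hyV : y ∈ V₀ := by
    by_contra hyV
    -- `V₀ ⊔ ⟨y⟩` is a `p`-group of order at least `p ^ 2`
    have hP : IsPGroup p (Subgroup.zpowers y) :=
      IsPGroup.of_card (n := 1) (by rw [Nat.card_zpowers, hy, pow_one])
    have hP2 : IsPGroup p (V₀ ⊔ Subgroup.zpowers y : Subgroup H) := hVp.to_sup_of_normal_left hP
    obtain ⟨k, hk⟩ := IsPGroup.iff_card.1 hP2
    have hlt : V₀ < V₀ ⊔ Subgroup.zpowers y := by
      refine lt_of_le_of_ne le_sup_left ?_
      intro h
      apply hyV
      rw [h]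
      exact (le_sup_right : Subgroup.zpowers y ≤ _) (Subgroup.mem_zpowers y)
    have hcl : Nat.card V₀ < Nat.card (V₀ ⊔ Subgroup.zpowers y : Subgroup H) := by
      by_contra hcon
      exact hlt.ne (Subgroup.eq_of_le_of_card_ge hlt.le (by omega))
    rw [hk, hVcard] at hcl
    have hk2 : 2 ≤ k := by
      by_contra hcon
      have : p ^ k ≤ p ^ 1 := Nat.pow_le_pow_right hp.pos (by omega)
      rw [pow_one] at this
      omega
    apply hr2
    refine (pow_dvd_pow p hk2).trans ?_
    rw [← hk]
    exact (Subgroup.card_subgroup_dvd_card _).trans (Subgroup.card_subgroup_dvd_card H)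
  have hVz : V₀ = Subgroup.zpowers y := by
    symm
    apply Subgroup.eq_of_le_of_card_ge
    · rw [Subgroup.zpowers_le]; exact hyV
    · rw [Nat.card_zpowers, hy, hVcard]
  intro g hg
  have h2 : (⟨g, hg⟩ : H) * y * (⟨g, hg⟩ : H)⁻¹ ∈ V₀ := hVn.conj_mem y hyV _
  rw [hVz] at h2
  obtain ⟨j, hj⟩ := Subgroup.mem_zpowers_iff.1 h2
  exact Subgroup.mem_zpowers_iff.2 ⟨j, by simpa using congrArg Subtype.val hj⟩

/-- `PSL(3, 3)`: an element of order 13. -/
theorem witness_psl_three {F : Type*} [Field F] [Fintype F] (hF : Fintype.card F = 3)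
    (hG : IsMinimalSimple (Matrix.ProjectiveSpecialLinearGroup (Fin 3) F)) :
    HasWitness (Matrix.ProjectiveSpecialLinearGroup (Fin 3) F) := by
  have h13 : Nat.Prime 13 := by norm_num
  have hf : Fact (Nat.Prime 13) := ⟨h13⟩
  have hX : Nat.card (Projectivization F (Fin 3 → F)) = 13 := by
    rw [Projectivization.card_of_finrank F (Fin 3 → F) (n := 3) (by simp),
      Nat.card_eq_fintype_card, hF]
    decide
  have hdvd : 13 ∣ Nat.card (Matrix.ProjectiveSpecialLinearGroup (Fin 3) F) := by
    rw [← hX]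
    have h1 : MulAction.IsPretransitive (Matrix.ProjectiveSpecialLinearGroup (Fin 3) F)
      (Projectivization F (Fin 3 → F)) := inferInstance
    have hne : Nonempty (Projectivization F (Fin 3 → F)) :=
      (Nat.card_ne_zero.1 (by rw [hX]; norm_num)).1
    obtain ⟨a⟩ := hne
    have h2 := MulAction.index_stabilizer_of_transitive
      (Matrix.ProjectiveSpecialLinearGroup (Fin 3) F) a
    rw [← h2]
    exact Subgroup.index_dvd_card _
  obtain ⟨x, hx⟩ := exists_prime_orderOf_dvd_card'
    (G := Matrix.ProjectiveSpecialLinearGroup (Fin 3) F) 13 hdvd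
  refine SolvGenPSL.witness_of_normalizer hG (x := x) ?_ ⟨13, 1, h13, by norm_num, by
    rw [hx, pow_one]⟩ ?_
  · rintro rfl
    rw [orderOf_one] at hx
    omega
  · intro H _ h2 h3
    exact conj_mem_of_card (X := Projectivization F (Fin 3 → F)) inferInstance h13 hX hx H h2 h3

end Cfsg.Agent.H99.SolvGenPrime
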